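import Mathlib

set_option autoImplicit false

namespace Cfsg.Agent.Lib.Helper24

open scoped IsMulCommutative in
/-- Averaging over a complement `K` of an abelian Sylow `p`-subgroup `P` in its normalizer:
the product of the `K`-conjugates of any `a ∈ P` is centralized by `N_G(P)`; the number of
factors is prime to `p`. -/
theorem exists_norm_family {G : Type*} [Group G] [Finite G] {p : ℕ} [Fact p.Prime] (P : Sylow p G)
    (hP : IsMulCommutative P) :
    ∃ (K : Subgroup (Subgroup.normalizer (P : Set G))) (_ : Fintype K)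
      (f : K → ↥(P : Subgroup G) → ↥(P : Subgroup G)),
      ¬ p ∣ Fintype.card K ∧
      (∀ k a, ((f k a : ↥(P : Subgroup G)) : G)
        = ((k : Subgroup.normalizer (P : Set G)) : G) * a * ((k : Subgroup.normalizer (P : Set G)) : G)⁻¹) ∧
      (∀ k a b, f k (a * b) = f k a * f k b) ∧ (∀ k, f k 1 = 1) ∧
      ∀ a : ↥(P : Subgroup G), ((∏ k : K, f k a : ↥(P : Subgroup G)) : G)
        ∈ Subgroup.centralizer (Subgroup.normalizer (P : Set G) : Set G) := by
  classical
  have hp : p.Prime := Fact.out
  have hPN : (P : Subgroup G) ≤ Subgroup.normalizer (P : Set G) := Subgroup.le_normalizer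
  have hP'n : ((P : Subgroup G).subgroupOf (Subgroup.normalizer (P : Set G))).Normal :=
    Subgroup.normal_in_normalizer
  have hP'p : IsPGroup p ((P : Subgroup G).subgroupOf (Subgroup.normalizer (P : Set G))) :=
    P.isPGroup'.comap_subtype
  have hidx : ((P : Subgroup G).subgroupOf (Subgroup.normalizer (P : Set G))).index ∣ (P : Subgroup G).index :=
    Dvd.intro _ (Subgroup.relIndex_mul_index hPN)
  have hidxp : ¬ p ∣ ((P : Subgroup G).subgroupOf (Subgroup.normalizer (P : Set G))).index :=
    fun hdvd => P.not_dvd_index (hdvd.trans hidx)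
  have hHall : Nat.Coprime (Nat.card ((P : Subgroup G).subgroupOf (Subgroup.normalizer (P : Set G))))
      ((P : Subgroup G).subgroupOf (Subgroup.normalizer (P : Set G))).index := by
    obtain ⟨k, hk⟩ := hP'p.exists_card_eq
    rw [hk]
    apply Nat.Coprime.pow_left
    rw [hp.coprime_iff_not_dvd]
    exact hidxp
  obtain ⟨K, hK⟩ := Subgroup.exists_right_complement'_of_coprime hHall
  let instK : Fintype K := Fintype.ofFinite K
  have hcardK : Fintype.card K = ((P : Subgroup G).subgroupOf (Subgroup.normalizer (P : Set G))).index := by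
    rw [← Nat.card_eq_fintype_card]
    exact (hK.symm.index_eq_card).symm
  -- conjugation by elements of K on P
  let f : K → ↥(P : Subgroup G) → ↥(P : Subgroup G) := fun k a =>
    ⟨((k : Subgroup.normalizer (P : Set G)) : G) * a * ((k : Subgroup.normalizer (P : Set G)) : G)⁻¹,
      (Subgroup.mem_normalizer_iff.mp k.1.2 a).mp a.2⟩
  have hf_mul : ∀ k a b, f k (a * b) = f k a * f k b := by
    intro k a b
    ext
    simp only [f, Subgroup.coe_mul]
    group
  have hf_one : ∀ k, f k 1 = 1 := by
    intro k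
    ext
    simp [f]
  have hb_conj : ∀ (a : (P : Subgroup G)) (k₀ : K) (s : Finset K),
      ((k₀ : Subgroup.normalizer (P : Set G)) : G) * ((∏ k ∈ s, f k a : (P : Subgroup G)) : G)
        * ((k₀ : Subgroup.normalizer (P : Set G)) : G)⁻¹ = ((∏ k ∈ s, f (k₀ * k) a : (P : Subgroup G)) : G) := by
    intro a k₀ s
    induction s using Finset.induction_on with
    | empty => simp
    | insert x s hx ih =>
      rw [Finset.prod_insert hx, Finset.prod_insert hx, Subgroup.coe_mul, Subgroup.coe_mul, ← ih]
      simp only [f, Subgroup.coe_mul]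
      group
  have hb_inv : ∀ (a : (P : Subgroup G)) (k₀ : K),
      ((k₀ : Subgroup.normalizer (P : Set G)) : G) * ((∏ k : K, f k a : (P : Subgroup G)) : G)
        * ((k₀ : Subgroup.normalizer (P : Set G)) : G)⁻¹ = ((∏ k : K, f k a : (P : Subgroup G)) : G) := by
    intro a k₀
    have h1 := hb_conj a k₀ Finset.univ
    have h2 : (∏ k, f (k₀ * k) a : (P : Subgroup G)) = ∏ k, f k a :=
      Fintype.prod_equiv (Equiv.mulLeft k₀) _ _ (fun k => rfl)
    rw [h2] at h1
    exact h1
  refine ⟨K, instK, f, ?_, fun k a => rfl, hf_mul, hf_one, ?_⟩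
  · rw [hcardK]; exact hidxp
  · intro a
    rw [Subgroup.mem_centralizer_iff]
    intro n hn
    have hg : (⟨n, hn⟩ : Subgroup.normalizer (P : Set G)) ∈
        (P : Subgroup G).subgroupOf (Subgroup.normalizer (P : Set G)) ⊔ K := by
      rw [hK.sup_eq_top]; exact Subgroup.mem_top _
    obtain ⟨t, ht, k, hk, htk⟩ := Subgroup.mem_sup_of_normal_left.mp hg
    have hn_eq : n = (t : G) * (k : G) := by
      have := congrArg (fun y : Subgroup.normalizer (P : Set G) => (y : G)) htk
      simpa using this.symm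
    have h1 := hb_inv a ⟨k, hk⟩
    have h2 : (t : G) * ((∏ k : K, f k a : (P : Subgroup G)) : G)
        = ((∏ k : K, f k a : (P : Subgroup G)) : G) * (t : G) := by
      have := hP.is_comm.comm (⟨(t : G), ht⟩ : (P : Subgroup G)) (∏ k : K, f k a)
      exact congrArg (fun y : (P : Subgroup G) => (y : G)) this
    simp only at h1
    rw [hn_eq]
    calc (t : G) * (k : G) * ((∏ k : K, f k a : (P : Subgroup G)) : G)
        = (t : G) * ((k : G) * ((∏ k : K, f k a : (P : Subgroup G)) : G) * (k : G)⁻¹) * (k : G) := by group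
      _ = (t : G) * ((∏ k : K, f k a : (P : Subgroup G)) : G) * (k : G) := by rw [h1]
      _ = ((∏ k : K, f k a : (P : Subgroup G)) : G) * (t : G) * (k : G) := by rw [h2]
      _ = ((∏ k : K, f k a : (P : Subgroup G)) : G) * ((t : G) * (k : G)) := by group

open scoped IsMulCommutative in
/-- Transfer into an abelian Sylow `p`-subgroup `P` evaluated at an element of `P` central in
`N_G(P)` is the `index`-th power. -/
theorem transfer_eq_pow_of_central {G : Type*} [Group G] [Finite G] {p : ℕ} [Fact p.Prime]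
    (P : Sylow p G) (hP : IsMulCommutative P) {A : Type*} [CommGroup A]
    (ν : ↥(P : Subgroup G) →* A) (z : G) (hzP : z ∈ (P : Subgroup G))
    (hzC : z ∈ Subgroup.centralizer (Subgroup.normalizer (P : Set G) : Set G)) :
    MonoidHom.transfer ν z = ν ⟨z ^ (P : Subgroup G).index, Subgroup.pow_mem _ hzP _⟩ := by
  have key : ∀ (k : ℕ) (g₀ : G), g₀⁻¹ * z ^ k * g₀ ∈ (P : Subgroup G) →
      g₀⁻¹ * z ^ k * g₀ = z ^ k := by
    intro k g₀ hmem
    have hzk : z ^ k ∈ (P : Subgroup G) := Subgroup.pow_mem _ hzP k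
    obtain ⟨n, hn, hn_eq⟩ := P.conj_eq_normalizer_conj_of_mem (z ^ k) g₀ hzk hmem
    rw [hn_eq]
    have hzkC : z ^ k ∈ Subgroup.centralizer (Subgroup.normalizer (P : Set G) : Set G) :=
      Subgroup.pow_mem _ hzC k
    have := (Subgroup.mem_centralizer_iff.mp hzkC) n hn
    rw [mul_assoc, ← this]; group
  exact MonoidHom.transfer_eq_pow ν z key

/-- A homomorphism to a finite `2`-group that is nontrivial yields a subgroup of index 2. -/
theorem exists_index_two_of_hom_ne_one {G A : Type*} [Group G] [Group A] [Finite A]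
    (hA : IsPGroup 2 A) (f : G →* A) (g : G) (hg : f g ≠ 1) : ∃ H : Subgroup G, H.index = 2 := by
  have : Fact (Nat.Prime 2) := ⟨Nat.prime_two⟩
  have hX : IsPGroup 2 f.range := hA.to_subgroup f.range
  obtain ⟨k, hk⟩ := hX.exists_card_eq
  have hk0 : k ≠ 0 := by
    intro h0
    rw [h0, pow_zero] at hk
    have h1 : f.range = ⊥ := (Subgroup.eq_bot_iff_card f.range).mpr hk
    have h2 : f g ∈ f.range := ⟨g, rfl⟩
    rw [h1, Subgroup.mem_bot] at h2
    exact hg h2
  have hdvd : 2 ^ (k - 1) ∣ Nat.card f.range := by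
    rw [hk]; exact pow_dvd_pow 2 (Nat.sub_le k 1)
  obtain ⟨M, hM⟩ := Sylow.exists_subgroup_card_pow_prime 2 hdvd
  have hMidx : M.index = 2 := by
    have h1 := M.card_mul_index
    rw [hM, hk] at h1
    have h2 : (2 : ℕ) ^ k = 2 ^ (k - 1) * 2 := by
      rw [← pow_succ]; congr 1; omega
    rw [h2] at h1
    exact Nat.eq_of_mul_eq_mul_left (by positivity) h1
  refine ⟨M.comap f.rangeRestrict, ?_⟩
  rw [Subgroup.index_comap_of_surjective M f.rangeRestrict_surjective]
  exact hMidx

end Cfsg.Agent.Lib.Helper24
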