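import Mathlib

/-!
# The symmetric group of degree 5 from a 4-string (helper24)

Four involutions `a, b, c, d` satisfying the Coxeter relations of type `A₄` with `a ≠ b`
generate a copy of the symmetric group of degree 5 (`exists_symFive_hom`).  The proof is by
rewriting words to the 120 normal forms, following `Cfsg.Agent.S5344`.
-/

set_option autoImplicit false

namespace Cfsg.Agent.Lib.Helper24.SymFive

/-- rewriting rules of the Coxeter group of type `A₄` on words in four letters. -/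
def rules : List (List (Fin 4) × List (Fin 4)) :=
  [([0, 0], []), ([1, 1], []), ([2, 2], []), ([3, 3], []),
   ([2, 0], [0, 2]), ([3, 0], [0, 3]), ([3, 1], [1, 3]),
   ([1, 0, 1], [0, 1, 0]), ([2, 1, 2], [1, 2, 1]), ([3, 2, 3], [2, 3, 2]),
   ([2, 1, 0, 2], [1, 2, 1, 0]), ([3, 2, 1, 3], [2, 3, 2, 1]),
   ([3, 2, 1, 0, 3], [2, 3, 2, 1, 0])]

/-- apply the first rule whose left side is a prefix of the word. -/
def rewriteHead : List (List (Fin 4) × List (Fin 4)) → List (Fin 4) → Option (List (Fin 4))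
  | [], _ => none
  | r :: rs, l => if r.1.isPrefixOf l then some (r.2 ++ l.drop r.1.length) else rewriteHead rs l

/-- one rewriting step at the leftmost possible position. -/
def step : List (Fin 4) → List (Fin 4)
  | [] => []
  | x :: xs =>
    match rewriteHead rules (x :: xs) with
    | some l' => l'
    | none => x :: step xs

/-- iterate the rewriting step. -/
def iter : ℕ → List (Fin 4) → List (Fin 4)
  | 0, l => l
  | n + 1, l => iter n (step l)

/-- normal form of a word. -/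
def nf (l : List (Fin 4)) : List (Fin 4) := iter 8 l

/-- the 120 irreducible words. -/
def W : List (List (Fin 4)) :=
  [[], [3], [3, 2], [3, 2, 1], [3, 2, 1, 0], [2], [2, 3], [2, 3, 2], [2, 3, 2, 1],
   [2, 3, 2, 1, 0], [2, 1], [2, 1, 3], [2, 1, 3, 2], [2, 1, 3, 2, 1], [2, 1, 3, 2, 1, 0],
   [2, 1, 0], [2, 1, 0, 3], [2, 1, 0, 3, 2], [2, 1, 0, 3, 2, 1], [2, 1, 0, 3, 2, 1, 0], [1],
   [1, 3], [1, 3, 2], [1, 3, 2, 1], [1, 3, 2, 1, 0], [1, 2], [1, 2, 3], [1, 2, 3, 2],
   [1, 2, 3, 2, 1], [1, 2, 3, 2, 1, 0], [1, 2, 1], [1, 2, 1, 3], [1, 2, 1, 3, 2],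
   [1, 2, 1, 3, 2, 1], [1, 2, 1, 3, 2, 1, 0], [1, 2, 1, 0], [1, 2, 1, 0, 3], [1, 2, 1, 0, 3, 2],
   [1, 2, 1, 0, 3, 2, 1], [1, 2, 1, 0, 3, 2, 1, 0], [1, 0], [1, 0, 3], [1, 0, 3, 2],
   [1, 0, 3, 2, 1], [1, 0, 3, 2, 1, 0], [1, 0, 2], [1, 0, 2, 3], [1, 0, 2, 3, 2],
   [1, 0, 2, 3, 2, 1], [1, 0, 2, 3, 2, 1, 0], [1, 0, 2, 1], [1, 0, 2, 1, 3], [1, 0, 2, 1, 3, 2],
   [1, 0, 2, 1, 3, 2, 1], [1, 0, 2, 1, 3, 2, 1, 0], [1, 0, 2, 1, 0], [1, 0, 2, 1, 0, 3],
   [1, 0, 2, 1, 0, 3, 2], [1, 0, 2, 1, 0, 3, 2, 1], [1, 0, 2, 1, 0, 3, 2, 1, 0], [0], [0, 3],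
   [0, 3, 2], [0, 3, 2, 1], [0, 3, 2, 1, 0], [0, 2], [0, 2, 3], [0, 2, 3, 2], [0, 2, 3, 2, 1],
   [0, 2, 3, 2, 1, 0], [0, 2, 1], [0, 2, 1, 3], [0, 2, 1, 3, 2], [0, 2, 1, 3, 2, 1],
   [0, 2, 1, 3, 2, 1, 0], [0, 2, 1, 0], [0, 2, 1, 0, 3], [0, 2, 1, 0, 3, 2],
   [0, 2, 1, 0, 3, 2, 1], [0, 2, 1, 0, 3, 2, 1, 0], [0, 1], [0, 1, 3], [0, 1, 3, 2],
   [0, 1, 3, 2, 1], [0, 1, 3, 2, 1, 0], [0, 1, 2], [0, 1, 2, 3], [0, 1, 2, 3, 2],
   [0, 1, 2, 3, 2, 1], [0, 1, 2, 3, 2, 1, 0], [0, 1, 2, 1], [0, 1, 2, 1, 3], [0, 1, 2, 1, 3, 2],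
   [0, 1, 2, 1, 3, 2, 1], [0, 1, 2, 1, 3, 2, 1, 0], [0, 1, 2, 1, 0], [0, 1, 2, 1, 0, 3],
   [0, 1, 2, 1, 0, 3, 2], [0, 1, 2, 1, 0, 3, 2, 1], [0, 1, 2, 1, 0, 3, 2, 1, 0], [0, 1, 0],
   [0, 1, 0, 3], [0, 1, 0, 3, 2], [0, 1, 0, 3, 2, 1], [0, 1, 0, 3, 2, 1, 0], [0, 1, 0, 2],
   [0, 1, 0, 2, 3], [0, 1, 0, 2, 3, 2], [0, 1, 0, 2, 3, 2, 1], [0, 1, 0, 2, 3, 2, 1, 0],
   [0, 1, 0, 2, 1], [0, 1, 0, 2, 1, 3], [0, 1, 0, 2, 1, 3, 2], [0, 1, 0, 2, 1, 3, 2, 1],
   [0, 1, 0, 2, 1, 3, 2, 1, 0], [0, 1, 0, 2, 1, 0], [0, 1, 0, 2, 1, 0, 3],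
   [0, 1, 0, 2, 1, 0, 3, 2], [0, 1, 0, 2, 1, 0, 3, 2, 1], [0, 1, 0, 2, 1, 0, 3, 2, 1, 0]]

/-- value of a word. -/
def ev {M : Type*} [Monoid M] (g : Fin 4 → M) (l : List (Fin 4)) : M := (l.map g).prod

theorem ev_nil {M : Type*} [Monoid M] (g : Fin 4 → M) : ev g [] = 1 := rfl

theorem ev_cons {M : Type*} [Monoid M] (g : Fin 4 → M) (x : Fin 4) (l : List (Fin 4)) :
    ev g (x :: l) = g x * ev g l := by
  simp [ev]

theorem ev_append {M : Type*} [Monoid M] (g : Fin 4 → M) (l₁ l₂ : List (Fin 4)) :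
    ev g (l₁ ++ l₂) = ev g l₁ * ev g l₂ := by
  simp [ev]

theorem ev_singleton {M : Type*} [Monoid M] (g : Fin 4 → M) (x : Fin 4) : ev g [x] = g x := by
  simp [ev]

theorem ev_reverse {M : Type*} [Group M] (g : Fin 4 → M) (hg : ∀ i, g i * g i = 1)
    (l : List (Fin 4)) : ev g l.reverse = (ev g l)⁻¹ := by
  induction l with
  | nil => simp [ev]
  | cons x xs ih =>
    rw [List.reverse_cons, ev_append, ev_singleton, ev_cons, ih, mul_inv_rev]
    congr 1
    exact (inv_eq_of_mul_eq_one_left (hg x)).symm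

theorem rewriteHead_sound {M : Type*} [Monoid M] (g : Fin 4 → M)
    (rs : List (List (Fin 4) × List (Fin 4))) (h : ∀ r ∈ rs, ev g r.1 = ev g r.2)
    (l l' : List (Fin 4)) (hl : rewriteHead rs l = some l') : ev g l' = ev g l := by
  induction rs with
  | nil => simp [rewriteHead] at hl
  | cons r rs ih =>
    simp only [rewriteHead] at hl
    split_ifs at hl with hp
    · have hp' := List.prefix_iff_eq_append.mp (List.isPrefixOf_iff_prefix.mp hp)
      have hl' : r.2 ++ List.drop r.1.length l = l' := Option.some.inj hl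
      rw [← hl', ev_append, ← h r List.mem_cons_self, ← ev_append, hp']
    · exact ih (fun r' hr' => h r' (List.mem_cons_of_mem _ hr')) hl

theorem step_sound {M : Type*} [Monoid M] (g : Fin 4 → M)
    (h : ∀ r ∈ rules, ev g r.1 = ev g r.2) (l : List (Fin 4)) : ev g (step l) = ev g l := by
  induction l with
  | nil => rfl
  | cons x xs ih =>
    simp only [step]
    split
    · next l' heq => exact rewriteHead_sound g rules h _ _ heq
    · rw [ev_cons, ev_cons, ih]

theorem iter_sound {M : Type*} [Monoid M] (g : Fin 4 → M)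
    (h : ∀ r ∈ rules, ev g r.1 = ev g r.2) (n : ℕ) (l : List (Fin 4)) :
    ev g (iter n l) = ev g l := by
  induction n generalizing l with
  | zero => rfl
  | succ n ih => rw [iter, ih, step_sound g h]

theorem nf_sound {M : Type*} [Monoid M] (g : Fin 4 → M)
    (h : ∀ r ∈ rules, ev g r.1 = ev g r.2) (l : List (Fin 4)) : ev g (nf l) = ev g l :=
  iter_sound g h 8 l

/-- the Coxeter generators of the symmetric group of degree 5. -/
def sgen : Fin 4 → Equiv.Perm (Fin 5)
  | 0 => Equiv.swap 0 1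
  | 1 => Equiv.swap 1 2
  | 2 => Equiv.swap 2 3
  | 3 => Equiv.swap 3 4

theorem sgen_rules : ∀ r ∈ rules, ev sgen r.1 = ev sgen r.2 := by decide +kernel

theorem sgen_sq : ∀ i, sgen i * sgen i = 1 := by decide +kernel

theorem W_closed : ∀ w ∈ W, ∀ i : Fin 4, nf (w ++ [i]) ∈ W := by decide +kernel

theorem W_one : ∀ w ∈ W, ev sgen w = 1 → w = [] := by decide +kernel

theorem sgen_surj (σ : Equiv.Perm (Fin 5)) : ∃ l : List (Fin 4), ev sgen l = σ := by
  have hmem : σ ∈ Submonoid.closure (Set.range fun i : Fin 4 ↦ Equiv.swap i.castSucc i.succ) := by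
    rw [Equiv.Perm.mclosure_swap_castSucc_succ 4]
    exact Submonoid.mem_top σ
  induction hmem using Submonoid.closure_induction with
  | mem x hx =>
    obtain ⟨i, rfl⟩ := hx
    refine ⟨[i], ?_⟩
    rw [ev_singleton]
    fin_cases i <;> rfl
  | one => exact ⟨[], rfl⟩
  | mul x y _ _ hx hy =>
    obtain ⟨l₁, rfl⟩ := hx
    obtain ⟨l₂, rfl⟩ := hy
    exact ⟨l₁ ++ l₂, ev_append _ _ _⟩

theorem exists_ne_ne : ∀ a b : Fin 5, ∃ j : Fin 5, j ≠ a ∧ j ≠ b := by decide

/-- a nontrivial normal subgroup of the symmetric group of degree 5 contains a 3-cycle. -/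
theorem three_cycle_mem_of_normal {N : Subgroup (Equiv.Perm (Fin 5))} (hN : N.Normal)
    (hne : N ≠ ⊥) : Equiv.swap (0 : Fin 5) 1 * Equiv.swap 1 2 ∈ N := by
  have hsimple : IsSimpleGroup (alternatingGroup (Fin 5)) :=
    alternatingGroup.isSimpleGroup (by simp)
  have hc : (Equiv.swap (0 : Fin 5) 1 * Equiv.swap 1 2) ∈ alternatingGroup (Fin 5) := by
    rw [Equiv.Perm.mem_alternatingGroup]
    decide
  have hK : (N.subgroupOf (alternatingGroup (Fin 5))).Normal := hN.subgroupOf _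
  rcases hK.eq_bot_or_eq_top with h | h
  · exfalso
    have hNA : ∀ σ ∈ N, σ ∈ alternatingGroup (Fin 5) → σ = 1 := by
      intro σ hσ hσA
      have h1 : (⟨σ, hσA⟩ : alternatingGroup (Fin 5)) ∈ N.subgroupOf (alternatingGroup (Fin 5)) :=
        Subgroup.mem_subgroupOf.mpr hσ
      rw [h, Subgroup.mem_bot] at h1
      exact congrArg Subtype.val h1
    obtain ⟨σ, hσN, hσ1⟩ : ∃ σ ∈ N, σ ≠ 1 := by
      by_contra hcon
      push Not at hcon
      exact hne ((Subgroup.eq_bot_iff_forall N).mpr hcon)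
    have hodd : Equiv.Perm.sign σ = -1 := by
      rcases Int.units_eq_one_or (Equiv.Perm.sign σ) with h1 | h1
      · exact absurd (hNA σ hσN (Equiv.Perm.mem_alternatingGroup.mpr h1)) hσ1
      · exact h1
    have hcent : ∀ τ : Equiv.Perm (Fin 5), τ * σ * τ⁻¹ = σ⁻¹ := by
      intro τ
      have h1 : σ * (τ * σ * τ⁻¹) ∈ N := N.mul_mem hσN (hN.conj_mem σ hσN τ)
      have h2 : σ * (τ * σ * τ⁻¹) ∈ alternatingGroup (Fin 5) := by
        rw [Equiv.Perm.mem_alternatingGroup]
        simp [hodd]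
      have := hNA _ h1 h2
      exact eq_inv_of_mul_eq_one_right this
    have hσσ : σ = σ⁻¹ := by
      have := hcent 1
      simpa using this
    obtain ⟨i, hi⟩ : ∃ i, σ i ≠ i := by
      by_contra hcon
      push Not at hcon
      exact hσ1 (Equiv.ext hcon)
    obtain ⟨j, hj1, hj2⟩ := exists_ne_ne i (σ i)
    have h3 := congrArg (fun ρ : Equiv.Perm (Fin 5) => ρ i) (hcent (Equiv.swap (σ i) j))
    rw [← hσσ] at h3
    have h4 : (Equiv.swap (σ i) j)⁻¹ i = i := by
      rw [Equiv.swap_inv]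
      exact Equiv.swap_apply_of_ne_of_ne (Ne.symm hi) (Ne.symm hj1)
    have h5 : (Equiv.swap (σ i) j * σ * (Equiv.swap (σ i) j)⁻¹) i = j := by
      rw [Equiv.Perm.mul_apply, Equiv.Perm.mul_apply, h4, Equiv.swap_apply_left]
    have h6 : j = σ i := h5.symm.trans h3
    exact hj2 h6
  · have h1 : (⟨_, hc⟩ : alternatingGroup (Fin 5)) ∈ N.subgroupOf (alternatingGroup (Fin 5)) := by
      rw [h]
      trivial
    exact Subgroup.mem_subgroupOf.mp h1

/-- four involutions satisfying the Coxeter relations of type `A₄`, the first two distinct,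
generate a copy of the symmetric group of degree 5 -/
theorem exists_symFive_hom {G : Type*} [Group G] {a b c d : G}
    (ha2 : a * a = 1) (hb2 : b * b = 1) (hc2 : c * c = 1) (hd2 : d * d = 1)
    (hbab : b * a * b = a * b * a) (hcbc : c * b * c = b * c * b) (hdcd : d * c * d = c * d * c)
    (hca : c * a = a * c) (hda : d * a = a * d) (hdb : d * b = b * d) (hne : a ≠ b) :
    ∃ φ : Equiv.Perm (Fin 5) →* G, Function.Injective φ ∧ φ (Equiv.swap 0 1) = a ∧
      φ (Equiv.swap 1 2) = b ∧ φ (Equiv.swap 2 3) = c ∧ φ (Equiv.swap 3 4) = d := by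
  classical
  have hrG : ∀ r ∈ rules, ev ![a, b, c, d] r.1 = ev ![a, b, c, d] r.2 := by
    intro r hr
    simp only [rules, List.mem_cons, List.not_mem_nil, or_false] at hr
    rcases hr with rfl | rfl | rfl | rfl | rfl | rfl | rfl | rfl | rfl | rfl | rfl | rfl | rfl
    · simpa [ev] using ha2
    · simpa [ev] using hb2
    · simpa [ev] using hc2
    · simpa [ev] using hd2
    · simpa [ev] using hca
    · simpa [ev] using hda
    · simpa [ev] using hdb
    · simpa [ev, mul_assoc] using hbab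
    · simpa [ev, mul_assoc] using hcbc
    · simpa [ev, mul_assoc] using hdcd
    · have : c * b * a * c = b * c * b * a := by
        calc c * b * a * c = c * b * (a * c) := by group
          _ = c * b * (c * a) := by rw [hca]
          _ = (c * b * c) * a := by group
          _ = b * c * b * a := by rw [hcbc]
      simpa [ev, mul_assoc] using this
    · have : d * c * b * d = c * d * c * b := by
        calc d * c * b * d = d * c * (b * d) := by group
          _ = d * c * (d * b) := by rw [hdb]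
          _ = (d * c * d) * b := by group
          _ = c * d * c * b := by rw [hdcd]
      simpa [ev, mul_assoc] using this
    · have : d * c * b * a * d = c * d * c * b * a := by
        calc d * c * b * a * d = d * c * b * (a * d) := by group
          _ = d * c * b * (d * a) := by rw [hda]
          _ = d * c * (b * d) * a := by group
          _ = d * c * (d * b) * a := by rw [hdb]
          _ = (d * c * d) * b * a := by group
          _ = c * d * c * b * a := by rw [hdcd]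
      simpa [ev, mul_assoc] using this
  have hgsq : ∀ i : Fin 4, (![a, b, c, d] : Fin 4 → G) i * (![a, b, c, d] : Fin 4 → G) i = 1 := by
    intro i
    fin_cases i
    · simpa using ha2
    · simpa using hb2
    · simpa using hc2
    · simpa using hd2
  have hcanon : ∀ l : List (Fin 4), ∃ w ∈ W, ev ![a, b, c, d] w = ev ![a, b, c, d] l ∧
      ev sgen w = ev sgen l := by
    intro l
    induction l using List.reverseRecOn with
    | nil => exact ⟨[], by decide +kernel, rfl, rfl⟩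
    | append_singleton l i ih =>
      obtain ⟨w, hw, h1, h2⟩ := ih
      refine ⟨nf (w ++ [i]), W_closed w hw i, ?_, ?_⟩
      · rw [nf_sound _ hrG, ev_append, ev_append, h1]
      · rw [nf_sound _ sgen_rules, ev_append, ev_append, h2]
  have hK : ∀ l : List (Fin 4), ev sgen l = 1 → ev ![a, b, c, d] l = 1 := by
    intro l hl
    obtain ⟨w, hw, h1, h2⟩ := hcanon l
    rw [hl] at h2
    rw [← h1, W_one w hw h2]
    rfl
  have hC : ∀ l l' : List (Fin 4), ev sgen l = ev sgen l' →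
      ev ![a, b, c, d] l = ev ![a, b, c, d] l' := by
    intro l l' h
    have h1 : ev sgen (l ++ l'.reverse) = 1 := by
      rw [ev_append, ev_reverse sgen sgen_sq, h, mul_inv_cancel]
    have h2 := hK _ h1
    rw [ev_append, ev_reverse _ hgsq, mul_inv_eq_one] at h2
    exact h2
  choose L hL using sgen_surj
  have hφ : ∀ l : List (Fin 4), ev ![a, b, c, d] (L (ev sgen l)) = ev ![a, b, c, d] l :=
    fun l => hC _ _ (hL _)
  let φ : Equiv.Perm (Fin 5) →* G :=
    { toFun := fun σ => ev ![a, b, c, d] (L σ)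
      map_one' := hK _ (hL 1)
      map_mul' := fun σ τ => by
        rw [← ev_append]
        apply hC
        rw [hL, ev_append, hL, hL] }
  have h0 : φ (Equiv.swap 0 1) = a := by
    show ev ![a, b, c, d] (L (Equiv.swap 0 1)) = a
    have : (Equiv.swap 0 1 : Equiv.Perm (Fin 5)) = ev sgen [0] := rfl
    rw [this, hφ]
    simp [ev]
  have h1 : φ (Equiv.swap 1 2) = b := by
    show ev ![a, b, c, d] (L (Equiv.swap 1 2)) = b
    have : (Equiv.swap 1 2 : Equiv.Perm (Fin 5)) = ev sgen [1] := rfl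
    rw [this, hφ]
    simp [ev]
  have h2 : φ (Equiv.swap 2 3) = c := by
    show ev ![a, b, c, d] (L (Equiv.swap 2 3)) = c
    have : (Equiv.swap 2 3 : Equiv.Perm (Fin 5)) = ev sgen [2] := rfl
    rw [this, hφ]
    simp [ev]
  have h3 : φ (Equiv.swap 3 4) = d := by
    show ev ![a, b, c, d] (L (Equiv.swap 3 4)) = d
    have : (Equiv.swap 3 4 : Equiv.Perm (Fin 5)) = ev sgen [3] := rfl
    rw [this, hφ]
    simp [ev]
  refine ⟨φ, ?_, h0, h1, h2, h3⟩
  rw [← MonoidHom.ker_eq_bot_iff]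
  by_contra hker
  have hmem := three_cycle_mem_of_normal (MonoidHom.normal_ker φ) hker
  rw [MonoidHom.mem_ker, map_mul, h0, h1] at hmem
  apply hne
  have : b = a⁻¹ := eq_inv_of_mul_eq_one_right hmem
  rw [this]
  exact (inv_eq_of_mul_eq_one_left ha2).symm

end Cfsg.Agent.Lib.Helper24.SymFive
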